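/- Blocks with Klein four defect groups: sign columns and perfect isometries. -/
import Cfsg.Agent.H35.KW
import Cfsg.Agent.H35.RankOne
import Cfsg.Agent.H34.LocNil
import Cfsg.Agent.H37.Cyc10
import Cfsg.Agent.S4637

set_option autoImplicit false
set_option linter.unusedSectionVars false

namespace H35

open Cfsg H28 Finset
open scoped ComplexConjugate

section gen
variable {G : Type*} [Group G] [Fintype G] {p : ℕ} {M : Ideal AlgInt} [M.IsMaximal]
  {u : G} {C : Subgroup G} {B : Set (IrrCharacter G)}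

theorem card_cen_sec (hp : p.Prime) (hu : H41.IsSec p u C) {y : C} (hy : ¬ p ∣ orderOf y) :
    Nat.card (Subgroup.centralizer ({u * y} : Set G)) =
      Nat.card (Subgroup.centralizer ({y} : Set C)) := by
  have h1 : Subgroup.centralizer ({u * y} : Set G) ≤ C := fun g hg => by
    obtain ⟨n, hn⟩ := H41.mem_zpowers_of_isPPart hp (hu.isPPart hy)
    rw [hu.mem_iff, ← hn]
    exact (Commute.zpow_left (Subgroup.mem_centralizer_singleton_iff.1 hg).symm n).eq
  rw [← Nat.card_congr (Subgroup.subgroupOfEquivOfLe h1).toEquiv]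
  congr 2
  ext x
  rw [Subgroup.mem_subgroupOf, Subgroup.mem_centralizer_singleton_iff,
    Subgroup.mem_centralizer_singleton_iff, Subtype.ext_iff, ← mul_assoc, ← hu.comm, mul_assoc,
    mul_assoc, mul_right_inj]
  rfl

theorem div_card_cen_mem_of (hM : IsPModular p M) (a : IrrCharacter G → ℂ)
    (ha : ∀ χ ∈ B, a χ ∈ S M) (h0 : ∀ x, p ∣ orderOf x → ∑ χ ∈ bF B, a χ * (χ : G → ℂ) x = 0)
    (x : G) : (∑ χ ∈ bF B, a χ * (χ : G → ℂ) x) /
      Nat.card (Subgroup.centralizer ({x} : Set G)) ∈ S M := by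
  have h1 := apply_div_mem hM.1 (S M).toAddSubgroup
    (fun a ha z hz => (S M).mul_mem ha (mem_S_of_isIntegral_int hz)) (inB_sum_bF (B := B) a).1
    (fun ψ => by
      by_cases h : ψ ∈ B
      · rw [classInner_sum_bF a h]; exact ha ψ h
      · rw [(inB_sum_bF a).2 ψ h]; exact zero_mem _) (by simpa using h0) x
  obtain ⟨v, hv, h2⟩ := exists_unit_natCast hM
    (n := Nat.card (Subgroup.centralizer ({x} : Set G))) Nat.card_pos.ne'
  rw [h2, Nat.cast_mul, ← div_div]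
  exact div_natCast_mem_S hM (by simpa using h1) hv

theorem gen1_mem_S (hp : p.Prime) (hl : blockRank p B = 1) (hne : B.Nonempty) (x : G) :
    gen1 p B x ∈ S M := by
  obtain ⟨n, hn⟩ := exists_sum_mul_rdeg_eq_one hne
  rw [gen1_eq_sum hp hl hn, pReg_apply]
  split_ifs
  exacts [zero_mem _, mem_S_of_isIntegral_int ((isGenChar_sum_bF n).isIntegral x)]

theorem pow_mul_gen1_div_mem (hM : IsPModular p M) (hB : IsPBlock M B) (hl : blockRank p B = 1)
    (x : G) : (p : ℂ) ^ blockDefect p B * gen1 p B x /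
      Nat.card (Subgroup.centralizer ({x} : Set G)) ∈ S M := by
  classical
  by_cases hx : p ∣ orderOf x
  · rw [pReg_eq_self_iff.1 pReg_gen1 x hx, mul_zero, zero_div]; exact zero_mem _
  have hne := IsPBlock.nonempty' hB
  convert div_card_cen_mem_of hM (B := B) (fun χ => rdeg B χ) (fun χ _ => natCast_mem _ _)
    (fun y hy => ?_) x using 2
  · simp only [gen1, pReg_of_reg _ hx, ← sum_div, sum_rdeg_sq_of_rank_one hM hB hl]
    rw [Nat.cast_pow, mul_div_cancel₀ _ (pow_ne_zero _ (Nat.cast_ne_zero.2 hM.1.ne_zero))]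
  · have h1 := congrArg conj (weak_orth hM hB (x := 1) (by simpa using hM.1.ne_one) hy)
    refine mul_left_cancel₀ (Nat.cast_ne_zero.2 (gdeg_ne_zero hne)) ?_
    rw [mul_zero, ← map_zero conj, ← h1, map_sum, mul_sum]
    refine sum_congr rfl fun χ hχ => ?_
    rw [← mul_assoc, ← Nat.cast_mul, gdeg_mul_rdeg (mem_filter.1 hχ).2, ← coe_deg]
    simp

variable [Fintype C] {b : Set (IrrCharacter C)}

theorem sum_smul_fsec_reg (hM : IsPModular p M) (hB : IsPBlock M B) (hu : H41.IsSec p u C)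
    (hu1 : u ≠ 1) (hb : IsPBlock M b) {g : G} (hg : ¬ p ∣ orderOf g) :
    ∑ χ ∈ bF B, (χ : G → ℂ) g • fsec p b u χ = 0 := by
  classical
  rw [← H39.fsec_sum, fsec, ← blockPart_pReg hM hb, show pRegularPart p _ = 0 from ?_,
    blockPart_eq]
  · simp [classInner_zero_left]
  rw [← pReg_zero (p := p), pReg_eq_pReg_iff]
  intro y hy
  have h1 : p ∣ orderOf (u * y)⁻¹ := by
    by_contra h
    rw [orderOf_inv] at h
    exact hu1 (H41.isPPart_unique hM.1 (hu.isPPart hy) (H41.isPPart_one_of_not_dvd h))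
  have h2 := weak_orth hM hB hg h1
  simp only [← fun χ : IrrCharacter G => χ.2.isCharacter.apply_inv, inv_inv] at h2
  simpa [bF] using h2

theorem exists_int_fsec (hu : H41.IsSec 2 u C) (h2 : u ^ 2 = 1) (hl : blockRank 2 b = 1)
    {χ : G → ℂ} (hχ : IsCharacter G χ) : ∃ d : ℤ, fsec 2 b u χ = (d : ℂ) • gen1 2 b := by
  have := cycF_induction (P := fun F => ∃ d : ℤ, F 1 = (d : ℂ) • gen1 2 b) (fun ω hω v hv => by
    obtain ⟨d, rfl⟩ := LB_induction (P := fun v => ∃ d : ℤ, v = (d : ℂ) • gen1 2 b)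
      (fun ξ hξ => ⟨_, by rw [pReg_eq_rdeg_smul_gen1 Nat.prime_two hl hξ, Int.cast_natCast]⟩)
      ⟨0, by simp⟩ (by rintro _ _ ⟨d, rfl⟩ ⟨d', rfl⟩; exact ⟨d + d', by simp [add_smul]⟩)
      (by rintro _ ⟨d, rfl⟩; exact ⟨-d, by simp⟩) hv
    rcases mul_self_eq_one_iff.1 (sq ω ▸ hω) with rfl | rfl
    · exact ⟨d, by simp⟩
    · exact ⟨-d, by simp⟩) ⟨0, by simp⟩
    (by rintro F F' ⟨d, h⟩ ⟨d', h'⟩; exact ⟨d + d', by simp [add_smul, h, h']⟩)
    (fsec_mem_cycF (b := b) hu h2 hχ)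
  simpa using this

/-- A column of signs orthogonal to the `p`-regular classes. -/
def SCol (p : ℕ) (B : Set (IrrCharacter G)) (d : IrrCharacter G → ℤ) : Prop :=
  (∀ χ ∈ B, d χ = 1 ∨ d χ = -1) ∧
    ∀ g, ¬ p ∣ orderOf g → ∑ χ ∈ bF B, (d χ : ℂ) * (χ : G → ℂ) g = 0

theorem exists_sCol (hM : IsPModular 2 M) (hu : H41.IsSec 2 u C) (hu1 : u ≠ 1) (h2 : u ^ 2 = 1)
    (hi : IsInducedBlock M C b B) (hl : blockRank 2 b = 1)
    (hd : blockDefect 2 b = blockDefect 2 B) (hk : Nat.card B = 2 ^ blockDefect 2 B) :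
    ∃ d, SCol 2 B d ∧ ∀ χ : IrrCharacter G, fsec 2 b u χ = (d χ : ℂ) • gen1 2 b := by
  choose d hd' using fun χ : IrrCharacter G => exists_int_fsec hu h2 hl χ.2.isCharacter
  have hb := hi.1
  refine ⟨d, ⟨fun χ hχ => ?_, fun g hg => ?_⟩, hd'⟩
  · have h3 : ∀ χ : IrrCharacter G, QB 2 b (fsec 2 b u χ.1) (fsec 2 b u χ.1) = (d χ ^ 2 : ℤ) :=
      fun χ => by
        rw [hd', QB_apply, classInner_smul_left, classInner_smul_right, mul_left_comm,
          mul_left_comm _ (starRingEnd ℂ _), pow_mul_norm_gen1 hM hb hl]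
        simp [sq]
    have h4 := sum_QB_self hM hu hi
    simp only [h3, hd, hl, Nat.cast_one, mul_one, ← Nat.cast_pow, ← hk, ← card_bF] at h4
    have h5 : ∑ _χ ∈ bF B, (1 : ℤ) = ∑ χ ∈ bF B, d χ ^ 2 := by
      rw [sum_const, nsmul_eq_mul, mul_one]; exact_mod_cast h4.symm
    refine sq_eq_one_iff.1 ((sum_eq_sum_iff_of_le fun ψ hψ => ?_).1 h5 χ
      (mem_bF.2 hχ)).symm
    refine (one_le_sq_iff_one_le_abs _).2 (Int.one_le_abs fun h => ?_)
    exact (mem_nzF.1 ((nzF_eq_of_major hM hu hi hd).symm ▸ hψ)).2 (by simp [hd', h])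
  · have h1 := congrFun (sum_smul_fsec_reg hM hi.2.1 hu hu1 hb hg) 1
    simp only [hd', Finset.sum_apply, Pi.smul_apply, smul_eq_mul,
      gen1_one Nat.prime_two hl (IsPBlock.nonempty' hb), ← mul_assoc, ← sum_mul] at h1
    simpa only [mul_comm] using (mul_eq_zero.1 h1).resolve_right
      (Nat.cast_ne_zero.2 (gdeg_ne_zero (IsPBlock.nonempty' hb)))

variable (M B) in
/-- The functions on `B` that arise as values on an element with centralizer order `n`. -/
def SVal (n : ℕ) : AddSubmonoid (IrrCharacter G → ℂ) := AddSubmonoid.closure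
  {F | ∃ d c, SCol 2 B d ∧ c ∈ S M ∧ 4 * c / n ∈ S M ∧ F = fun χ => (d χ : ℂ) * c}

theorem klein_sec {P : Subgroup G} {e : MonoidAlgebra (F M) G} (h : H34.BD 2 M B P e)
    (hV : IsKleinFour P) (t : H34.SS 2 M B) (ht : t.u ≠ 1) :
    t.u ^ 2 = 1 ∧ blockRank 2 t.b = 1 ∧ blockDefect 2 t.b = 2 := by
  have hM := h.hM
  have := Fact.mk hM.1
  have := charP_F hM
  obtain ⟨v, hv⟩ := h.exists_cj t
  obtain ⟨σ, h1, -⟩ := hv.exists_equiv
  obtain ⟨g, h2, -⟩ := hv
  have h3 : orderOf (v : G) = orderOf t.u := by rw [← orderOf_conj' t.u g, h2]; rfl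
  have hab : P ≤ H39.Cen P := H39.le_cen_of_comm fun x hx y hy =>
    congrArg Subtype.val (mul_comm_of_exponent_two hV.exponent_two (⟨x, hx⟩ : P) ⟨y, hy⟩)
  have hD := (h.hm.local_of_le_cen (h.sub v.2)
    (hab.trans (H39.cen_anti (Subgroup.zpowers_le.2 v.2)))).isDef
  rw [top_inf_eq] at hD
  have h4 : blockDefect 2 (h.s v).b = 2 :=
    Nat.pow_right_injective le_rfl ((h.card_of_isDef v hD).symm.trans hV.card_four)
  have h5 : (v : G) ^ 2 = 1 := by
    rw [sq, ← Subgroup.coe_mul, IsKleinFour.mul_self, OneMemClass.coe_one]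
  have h6 : orderOf (v : G) = 2 := orderOf_eq_prime h5 fun h => ht (by
    rw [← orderOf_eq_one_iff, ← h3, h, orderOf_one])
  rw [← H39.blockRank_image σ, ← H36.blockDefect_image 2 σ, ← h1]
  refine ⟨(congrArg _ (h6.symm.trans h3)).trans (pow_orderOf_eq_one _), ?_, h4⟩
  let := Fintype.ofFinite (h.s v).C
  replace hD : H36.IsDef 2 (h.s v).C (h.s v).e P := by rw [h.s_e]; exact hD
  obtain ⟨Q, _, _, c, E, φ, k1, k2, -, -, k5, k6, -⟩ := exists_sec_quot hM (h.s v).sec (h.s v).ind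
    ((H36.isDefectGroup_subgroupOf_iff hM (h.s v).ind.1 hD.le).2 hD)
  rw [Nat.card_congr (Subgroup.subgroupOfEquivOfLe hD.le).toEquiv, hV.card_four,
    card_defectGroup hM k1 k2, h.s_u, h6] at k5
  have h8 : blockDefect 2 c = 1 := Nat.pow_right_injective le_rfl (by dsimp only; omega)
  have h9 := card_le_of_defect_le_two hM k1 (by omega)
  have h10 := blockRank_le_card (p := 2) (B := c)
  have h11 := blockRank_pos hM.1 (IsPBlock.nonempty' k1)
  rw [h8] at h9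
  rw [← k6]
  by_contra h12
  obtain ⟨ξ, hξ⟩ := IsPBlock.nonempty' k1
  have := defect_zero_of_vanish hM k1 hξ
    (pReg_eq_self_iff.1 (pReg_eq_self_of_card_eq_rank hM k1 (by omega) hξ))
  omega

theorem klein_sVal {P : Subgroup G} {e : MonoidAlgebra (F M) G} (h : H34.BD 2 M B P e)
    (hV : IsKleinFour P) (hk : Nat.card B = 4) {g : G} (hg : 2 ∣ orderOf g) :
    ∃ F ∈ SVal M B (Nat.card (Subgroup.centralizer ({g} : Set G))),
      ∀ χ ∈ B, (χ : G → ℂ) g = F χ := by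
  classical
  have hM := h.hM
  have hd : blockDefect 2 B = 2 :=
    Nat.pow_right_injective le_rfl (h.card_eq.symm.trans hV.card_four)
  obtain ⟨u, hu⟩ := H41.exists_isPPart hM.1 g
  have hu1 := H34.ne_one_of_isPPart hu hg
  have hs := H41.isSec_centralizer (p := 2) (u := u) hu.choose_spec.2.2.1
  obtain ⟨y, hy, rfl⟩ := hs.exists_eq_mul hu
  let := Fintype.ofFinite (Subgroup.centralizer ({u} : Set G))
  refine ⟨∑ b ∈ H34.blocks _ M with b ⊆ H41.locSet M _ B, fun χ => fsec 2 b u χ y,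
    sum_mem fun b hb => ?_, fun χ hχ => by
      rw [Finset.sum_apply]; exact H34.apply_eq_sum_fsec hM h.hB hs hχ hy⟩
  rw [mem_filter, H34.mem_blocks] at hb
  have hi := (hs.isInducedBlock_iff hM).2 ⟨hb.1, h.hB, hb.2⟩
  obtain ⟨h1, h2, h3⟩ := klein_sec h hV ⟨u, _, b, hs, hi⟩ hu1
  obtain ⟨d, h4, h5⟩ := exists_sCol hM hs hu1 h1 hi h2 (h3.trans hd.symm) (by rw [hk, hd]; rfl)
  refine AddSubmonoid.subset_closure ⟨d, gen1 2 b y, h4,
    gen1_mem_S hM.1 h2 (IsPBlock.nonempty' hb.1) y, ?_, funext fun χ => by rw [h5]; rfl⟩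
  have := pow_mul_gen1_div_mem hM hb.1 h2 y
  rw [h3, ← card_cen_sec hM.1 hs hy] at this
  convert this using 3
  norm_num

theorem SCol.eq_or_eq_neg (hk : Nat.card B = blockRank p B + 1) {d d' : IrrCharacter G → ℤ}
    (h : SCol p B d) (h' : SCol p B d') : ∃ t : ℤ, ∀ χ ∈ B, d' χ = t * d χ := by
  let f := (pRegL p G).domRestrict (spanB B)
  have h1 := f.finrank_range_add_finrank_ker
  rw [LinearMap.range_domRestrict, ← blockRank_eq_finrank_map, finrank_spanB, hk,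
    add_right_inj] at h1
  have h2 : ∀ {d}, SCol p B d → (⟨_, inB_sum_bF fun χ => (d χ : ℂ)⟩ : spanB B) ∈ f.ker :=
    fun h => by
      show pRegularPart p _ = 0
      rw [← pReg_zero (p := p), pReg_eq_pReg_iff]
      intro g hg
      simpa using h.2 g hg
  obtain ⟨χ₀, h0⟩ : B.Nonempty := Set.nonempty_coe_sort.1 (Nat.card_ne_zero.1 (by omega)).1
  obtain ⟨c, hc⟩ := (finrank_eq_one_iff_of_nonzero' (⟨_, h2 h⟩ : f.ker) fun e => by
    have := classInner_sum_bF (fun χ => (d χ : ℂ)) h0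
    rw [show ∑ χ ∈ bF B, (d χ : ℂ) • (χ : G → ℂ) = 0 from congrArg (·.1.1) e,
      classInner_zero_left] at this
    rcases h.1 χ₀ h0 with e | e <;> simp [e] at this).1 h1 ⟨_, h2 h'⟩
  have h3 : ∀ χ ∈ B, (d' χ : ℂ) = c * d χ := fun χ hχ => by
    rw [← classInner_sum_bF (fun χ => (d' χ : ℂ)) hχ, ← classInner_sum_bF (fun χ => (d χ : ℂ)) hχ,
      ← classInner_smul_left]
    exact congrArg (classInner · _) (congrArg (·.1.1) hc).symm
  refine ⟨d' χ₀ * d χ₀, fun χ hχ => ?_⟩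
  rw [← Int.cast_inj (α := ℂ), h3 χ hχ]
  push_cast
  rw [h3 χ₀ h0]
  rcases h.1 χ₀ h0 with e | e <;> simp [e]

end gen

section perf
variable {G H : Type*} [Group G] [Fintype G] [Group H] [Fintype H] {M : Ideal AlgInt}
  [M.IsMaximal] {B : Set (IrrCharacter G)} {c : Set (IrrCharacter H)}
  {I : IrrCharacter H → IrrCharacter G} {ε : IrrCharacter H → ℤ}

theorem isPerfectIsometry_of_sVal (hM : IsPModular 2 M) (hI : Set.BijOn I c B)
    (hε : ∀ η ∈ c, ε η = 1 ∨ ε η = -1)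
    (hB : ∀ g, 2 ∣ orderOf g → ∃ F ∈ SVal M B (Nat.card (Subgroup.centralizer ({g} : Set G))),
      ∀ χ ∈ B, (χ : G → ℂ) g = F χ)
    (hc : ∀ g, 2 ∣ orderOf g → ∃ F ∈ SVal M c (Nat.card (Subgroup.centralizer ({g} : Set H))),
      ∀ χ ∈ c, (χ : H → ℂ) g = F χ)
    (h1 : ∀ d, SCol 2 B d → ∀ y, ¬ 2 ∣ orderOf y →
      ∑ η ∈ bF c, (ε η : ℂ) * d (I η) * (η : H → ℂ) y = 0)
    (h2 : ∀ d, SCol 2 c d → ∀ x, ¬ 2 ∣ orderOf x →
      ∑ η ∈ bF c, (ε η : ℂ) * (I η : G → ℂ) x * d η = 0)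
    (h3 : ∀ d, SCol 2 B d → ∀ d', SCol 2 c d' → 4 ∣ ∑ η ∈ bF c, ε η * d (I η) * d' η) :
    IsPerfectIsometry 2 M c B I ε := by
  classical
  have e1 : ∀ x, 2 ∣ orderOf x → ∀ y, ¬ 2 ∣ orderOf y →
      ∑ η ∈ bF c, (ε η : ℂ) * (I η : G → ℂ) x * (η : H → ℂ) y = 0 := fun x hx y hy => by
    obtain ⟨F, hF, h⟩ := hB x hx
    rw [sum_congr rfl fun η hη => by rw [h _ (hI.mapsTo (mem_bF.1 hη))]]
    clear h
    induction hF using AddSubmonoid.closure_induction with
    | mem F hF =>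
      obtain ⟨d, a, hd, -, -, rfl⟩ := hF
      rw [← mul_zero a, ← h1 d hd y hy, mul_sum]
      exact sum_congr rfl fun η _ => by ring
    | zero => simp
    | add F F' _ _ h h' =>
      simp only [Pi.add_apply, mul_add, add_mul, sum_add_distrib, h, h', add_zero]
  have e2 : ∀ x, ¬ 2 ∣ orderOf x → ∀ y, 2 ∣ orderOf y →
      ∑ η ∈ bF c, (ε η : ℂ) * (I η : G → ℂ) x * (η : H → ℂ) y = 0 := fun x hx y hy => by
    obtain ⟨F, hF, h⟩ := hc y hy
    rw [sum_congr rfl fun η hη => by rw [h _ (mem_bF.1 hη)]]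
    clear h
    induction hF using AddSubmonoid.closure_induction with
    | mem F hF =>
      obtain ⟨d, a, hd, -, -, rfl⟩ := hF
      rw [← mul_zero a, ← h2 d hd x hx, mul_sum]
      exact sum_congr rfl fun η _ => by ring
    | zero => simp
    | add F F' _ _ h h' => simp only [Pi.add_apply, mul_add, sum_add_distrib, h, h', add_zero]
  have e3 : ∀ m n, ∀ F ∈ SVal M B m, ∀ F' ∈ SVal M c n,
      (∑ η ∈ bF c, (ε η : ℂ) * F (I η) * F' η) / m ∈ S M ∧
      (∑ η ∈ bF c, (ε η : ℂ) * F (I η) * F' η) / n ∈ S M := fun m n F hF F' hF' => by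
    induction hF using AddSubmonoid.closure_induction with
    | mem F hF =>
      obtain ⟨d, a, hd, ha, ha', rfl⟩ := hF
      induction hF' using AddSubmonoid.closure_induction with
      | mem F hF =>
        obtain ⟨d', a', hd', hb, hb', rfl⟩ := hF
        obtain ⟨k, hk⟩ := h3 d hd d' hd'
        have : ∑ η ∈ bF c, (ε η : ℂ) * (d (I η) * a) * (d' η * a') = 4 * k * a * a' := by
          have := congrArg (Int.cast : ℤ → ℂ) hk
          push_cast at this
          rw [← this, sum_mul, sum_mul]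
          exact sum_congr rfl fun η _ => by ring
        rw [this]
        constructor
        · convert mul_mem (mul_mem ha' hb) (intCast_mem _ k) using 1; ring
        · convert mul_mem (mul_mem hb' ha) (intCast_mem _ k) using 1; ring
      | zero => simp
      | add F F' _ _ h h' =>
        simp only [Pi.add_apply, mul_add, sum_add_distrib, add_div]
        exact ⟨add_mem h.1 h'.1, add_mem h.2 h'.2⟩
    | zero => simp
    | add F F' _ _ h h' =>
      simp only [Pi.add_apply, mul_add, add_mul, sum_add_distrib, add_div]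
      exact ⟨add_mem h.1 h'.1, add_mem h.2 h'.2⟩
  refine ⟨hI, hε, fun x y => ?_⟩
  rw [signedBijectionKernel, finsum_mem_eq_bF]
  simp only [IsPRegular, ← mem_S]
  by_cases hx : 2 ∣ orderOf x <;> by_cases hy : 2 ∣ orderOf y
  · obtain ⟨F, hF, h⟩ := hB x hx
    obtain ⟨F', hF', h'⟩ := hc y hy
    rw [sum_congr rfl fun η hη => by rw [h _ (hI.mapsTo (mem_bF.1 hη)), h' _ (mem_bF.1 hη)]]
    exact ⟨(e3 _ _ F hF F' hF').1, (e3 _ _ F hF F' hF').2, by simp [hx, hy]⟩
  · simp [e1 x hx y hy]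
  · simp [e2 x hx y hy]
  refine ⟨?_, div_card_cen_mem_of hM _ (fun η _ => mul_mem (intCast_mem _ _)
    (mem_S_of_isIntegral_int ((I η).2.isCharacter.isIntegral x))) (e2 x hx) y, by simp [hx, hy]⟩
  have e4 : ∀ x, ∑ η ∈ bF c, (ε η : ℂ) * (I η : G → ℂ) x * (η : H → ℂ) y = ∑ χ ∈ bF B,
      (∑ η ∈ bF c with I η = χ, (ε η : ℂ) * (η : H → ℂ) y) * (χ : G → ℂ) x := fun x => by
    rw [← sum_fiberwise_of_maps_to (g := I) fun η hη => mem_bF.2 (hI.mapsTo (mem_bF.1 hη))]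
    refine sum_congr rfl fun χ _ => ?_
    rw [sum_mul]
    exact sum_congr rfl fun η hη => by rw [(mem_filter.1 hη).2]; ring
  rw [e4]
  exact div_card_cen_mem_of hM _ (fun χ _ => sum_mem fun η _ => mul_mem (intCast_mem _ _)
    (mem_S_of_isIntegral_int (η.2.isCharacter.isIntegral y)))
    (fun x hx => (e4 x).symm.trans (e1 x hx y hy)) x

theorem four_dvd_sum {ι : Type*} {s : Finset ι} (hs : s.card = 4) {a b : ι → ℤ}
    (ha : ∀ i ∈ s, a i = 1 ∨ a i = -1) (hb : ∀ i ∈ s, b i = 1 ∨ b i = -1)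
    (ha' : ∑ i ∈ s, a i = 0) (hb' : ∑ i ∈ s, b i = 0) : 4 ∣ ∑ i ∈ s, a i * b i := by
  have : ∑ i ∈ s, a i * b i = ∑ i ∈ s, ((a i + 1) * (b i + 1)) - 4 := by
    simp [add_mul, mul_add, sum_add_distrib, ha', hb', hs]
  rw [this]
  refine dvd_sub (dvd_sum fun i hi => ?_) dvd_rfl
  rcases ha i hi with h | h <;> rcases hb i hi with h' | h' <;> simp [h, h']

theorem sum_bF_bij {V : Type*} [AddCommMonoid V] (hI : Set.BijOn I c B)
    (f : IrrCharacter G → V) : ∑ η ∈ bF c, f (I η) = ∑ χ ∈ bF B, f χ :=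
  sum_nbij I (fun _ h => mem_bF.2 (hI.mapsTo (mem_bF.1 h))) (by rw [coe_bF]; exact hI.injOn)
    (by rw [coe_bF, coe_bF]; exact hI.surjOn) fun _ _ => rfl

theorem reg_eq_of_rank_one {p : ℕ} (hM : IsPModular p M) (hB : IsPBlock M B)
    (hl : blockRank p B = 1) (hk : Nat.card B = p ^ blockDefect p B) {χ : IrrCharacter G}
    (hχ : χ ∈ B) {g : G} (hg : ¬ p ∣ orderOf g) : (χ : G → ℂ) g = gen1 p B g := by
  have h1 := (sum_eq_sum_iff_of_le (s := bF B) (f := fun _ => 1) (g := fun ψ => rdeg B ψ.1 ^ 2)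
    fun ψ hψ => Nat.one_le_pow _ _ (Nat.pos_of_ne_zero (rdeg_ne_zero (mem_bF.1 hψ)))).1
    (by rw [sum_rdeg_sq_of_rank_one hM hB hl, ← hk, ← card_bF, card_eq_sum_ones]) χ (mem_bF.2 hχ)
  have h2 := congrFun (pReg_eq_rdeg_smul_gen1 hM.1 hl hχ) g
  rwa [pReg_of_reg _ hg, (Nat.pow_eq_one.1 h1.symm).resolve_right two_ne_zero, Nat.cast_one,
    one_smul] at h2

theorem SCol.sum_eq_zero {p : ℕ} (hM : IsPModular p M) (hB : IsPBlock M B)
    (hl : blockRank p B = 1) (hk : Nat.card B = p ^ blockDefect p B) {d : IrrCharacter G → ℤ}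
    (h : SCol p B d) : ∑ χ ∈ bF B, d χ = 0 := by
  have h0 : ¬ p ∣ orderOf (1 : G) := by simpa using hM.1.ne_one
  have h1 := h.2 1 h0
  rw [sum_congr rfl fun χ hχ => by rw [reg_eq_of_rank_one hM hB hl hk (mem_bF.1 hχ) h0], ← sum_mul,
    gen1_one hM.1 hl (IsPBlock.nonempty' hB)] at h1
  exact_mod_cast (mul_eq_zero.1 h1).resolve_right
    (Nat.cast_ne_zero.2 (gdeg_ne_zero (IsPBlock.nonempty' hB)))

theorem klein_exists_sCol {P : Subgroup G} {e : MonoidAlgebra (F M) G} (h : H34.BD 2 M B P e)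
    (hV : IsKleinFour P) (hk : Nat.card B = 4) : ∃ d, SCol 2 B d := by
  have hd : blockDefect 2 B = 2 :=
    Nat.pow_right_injective le_rfl (h.card_eq.symm.trans hV.card_four)
  have := Finite.one_lt_card_iff_nontrivial.1 (hV.card_four ▸ (by norm_num : 1 < 4))
  obtain ⟨v, hv⟩ := exists_ne (1 : P)
  have hv' : (h.s v).u ≠ 1 := fun e => hv (Subtype.ext e)
  obtain ⟨h1, h2, h3⟩ := klein_sec h hV (h.s v) hv'
  let := Fintype.ofFinite (h.s v).C
  obtain ⟨d, h4, -⟩ := exists_sCol h.hM (h.s v).sec hv' h1 (h.s v).ind h2 (h3.trans hd.symm)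
    (by rw [hk, hd]; rfl)
  exact ⟨d, h4⟩

/-- Blocks with Klein four defect groups and the same rank are perfectly isometric. -/
theorem klein_perfect {P : Subgroup G} {e : MonoidAlgebra (F M) G} (h : H34.BD 2 M B P e)
    (hV : IsKleinFour P) (hk : Nat.card B = 4) {P' : Subgroup H} {e' : MonoidAlgebra (F M) H}
    (h' : H34.BD 2 M c P' e') (hV' : IsKleinFour P') (hk' : Nat.card c = 4)
    (hl : blockRank 2 B = 1 ∨ blockRank 2 B = 3) (hl' : blockRank 2 c = blockRank 2 B) :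
    ∃ I ε, IsPerfectIsometry 2 M c B I ε := by
  classical
  have hM := h.hM
  obtain ⟨σ⟩ : Nonempty (c ≃ B) := Finite.card_eq.1 (hk'.trans hk.symm)
  obtain ⟨χ₀, -⟩ := IsPBlock.nonempty' h.hB
  let I : IrrCharacter H → IrrCharacter G := fun η => if hη : η ∈ c then σ ⟨η, hη⟩ else χ₀
  have hI : Set.BijOn I c B := by
    refine ⟨fun η hη => by simp [I, hη], fun η hη η' hη' e => ?_, fun χ hχ => ?_⟩
    · simpa [I, hη, hη', Subtype.val_inj] using e
    · exact ⟨σ.symm ⟨χ, hχ⟩, (σ.symm _).2, by simp [I]⟩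
  have hd : Nat.card B = 2 ^ blockDefect 2 B := hk.trans (hV.card_four.symm.trans h.card_eq)
  have hd' : Nat.card c = 2 ^ blockDefect 2 c := hk'.trans (hV'.card_four.symm.trans h'.card_eq)
  refine ⟨I, ?_⟩
  rcases hl with hl | hl
  · rw [hl] at hl'
    have e1 : ∀ d, SCol 2 B d → ∑ η ∈ bF c, d (I η) = 0 := fun d hd₀ =>
      (sum_bF_bij hI d).trans (hd₀.sum_eq_zero hM h.hB hl hd)
    refine ⟨fun _ => 1, isPerfectIsometry_of_sVal hM hI (fun _ _ => Or.inl rfl)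
      (fun _ => klein_sVal h hV hk) (fun _ => klein_sVal h' hV' hk') (fun d h1 y hy => ?_)
      (fun d h1 x hx => ?_) fun d h1 d' h2 => ?_⟩
    · rw [sum_congr rfl fun η hη => by
        rw [reg_eq_of_rank_one hM h'.hB hl' hd' (mem_bF.1 hη) hy], ← sum_mul, ← mul_sum,
        ← Int.cast_sum, e1 d h1]
      simp
    · rw [sum_congr rfl fun η hη => by
        rw [reg_eq_of_rank_one hM h.hB hl hd (hI.mapsTo (mem_bF.1 hη)) hx], ← mul_sum,
        ← Int.cast_sum, h1.sum_eq_zero hM h'.hB hl' hd']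
      simp
    · simp only [one_mul]
      exact four_dvd_sum (card_bF.trans hk') (fun η hη => h1.1 _ (hI.mapsTo (mem_bF.1 hη)))
        (fun η hη => h2.1 _ (mem_bF.1 hη)) (e1 d h1) (h2.sum_eq_zero hM h'.hB hl' hd')
  obtain ⟨δ, hδ⟩ := klein_exists_sCol h hV hk
  obtain ⟨δ', hδ'⟩ := klein_exists_sCol h' hV' hk'
  have s1 : ∀ η ∈ bF c, δ (I η) * δ (I η) = 1 := fun η hη => by
    rcases hδ.1 _ (hI.mapsTo (mem_bF.1 hη)) with e | e <;> simp [e]
  have s2 : ∀ η ∈ bF c, δ' η * δ' η = 1 := fun η hη => by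
    rcases hδ'.1 _ (mem_bF.1 hη) with e | e <;> simp [e]
  have r1 : Nat.card B = blockRank 2 B + 1 := by omega
  have r2 : Nat.card c = blockRank 2 c + 1 := by omega
  refine ⟨fun η => δ (I η) * δ' η, isPerfectIsometry_of_sVal hM hI (fun η hη => ?_)
    (fun _ => klein_sVal h hV hk) (fun _ => klein_sVal h' hV' hk') (fun d h1 y hy => ?_)
    (fun d h1 x hx => ?_) fun d h1 d' h2 => ?_⟩
  · rcases hδ.1 _ (hI.mapsTo hη) with e | e <;> rcases hδ'.1 _ hη with e' | e' <;> simp [e, e']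
  · obtain ⟨t, ht⟩ := hδ.eq_or_eq_neg r1 h1
    rw [← mul_zero (t : ℂ), ← hδ'.2 y hy, mul_sum]
    refine sum_congr rfl fun η hη => ?_
    have : (δ (I η) : ℂ) * δ (I η) = 1 := by exact_mod_cast s1 η hη
    rw [ht _ (hI.mapsTo (mem_bF.1 hη))]
    push_cast
    linear_combination t * δ' η * (η : H → ℂ) y * this
  · obtain ⟨t, ht⟩ := hδ'.eq_or_eq_neg r2 h1
    rw [← mul_zero (t : ℂ), ← hδ.2 x hx, ← sum_bF_bij hI, mul_sum]
    refine sum_congr rfl fun η hη => ?_
    have : (δ' η : ℂ) * δ' η = 1 := by exact_mod_cast s2 η hη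
    rw [ht _ (mem_bF.1 hη)]
    push_cast
    linear_combination t * δ (I η) * (I η : G → ℂ) x * this
  · obtain ⟨t, ht⟩ := hδ.eq_or_eq_neg r1 h1
    obtain ⟨t', ht'⟩ := hδ'.eq_or_eq_neg r2 h2
    rw [sum_congr rfl (g := fun _ => t * t') fun η hη => by
      rw [ht _ (hI.mapsTo (mem_bF.1 hη)), ht' _ (mem_bF.1 hη)]
      linear_combination t * t' * δ' η * δ' η * s1 η hη + t * t' * s2 η hη,
      sum_const, card_bF, hk']
    simp

end perf

end H35
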