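import Cfsg.Agent.H97.QPSpec
import Cfsg.Agent.H12.ExtTransfer

/-! Quasithin tower, phase 2 (blueprints/QP.md, section NK): transfer kills `D`. -/

set_option autoImplicit false
set_option linter.unusedSectionVars false

namespace H35.QP

open Cfsg Subgroup H98 H97.NG H97.QP H32.NP
open scoped commutatorElement

universe u

variable {G : Type*} [Group G] {S P P' W W' D D' : Subgroup G} {x x' y z s n t q : G}

/-- An element of odd order normalizing a four-group moved by the element `x` of odd order acts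
as a power of `x`. -/
theorem four_odd [Finite G] (h : H12.Four W) (hx : x ∈ normalizer (W : Set G))
    (hx' : x ∉ centralizer (W : Set G)) (ox : Odd (orderOf x)) (hy : y ∈ normalizer (W : Set G))
    (oy : Odd (orderOf y)) : ∃ a ∈ zpowers x, ∃ c ∈ centralizer (W : Set G), y = a * c := by
  have h1 := h.res_normalizer_le (zpowers_le.2 hx)
    (res_eq_self_of_coprime (by rw [Nat.card_zpowers]; exact ox.coprime_two_right))
    (fun e => hx' (zpowers_le.1 e)) (mem_res_of_coprime hy oy.coprime_two_right)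
  exact (mem_sup_left_norm (le_normalizer_centralizer (zpowers_le.2 hx))).1 h1

theorem V_ea (h : PX S P W x z s) : IsElementaryAbelian 2 (W ⊔ cj s W : Subgroup G) := by
  by_cases e : cj s W = W
  · rw [e, sup_idem]; exact h.bc.four.ea
  · exact H12.ea_sup h.bc.four.ea (h.bc_cj h.mem).four.ea (h.ind s h.mem e).2.1

theorem V_le (h : PX S P W x z s) : W ⊔ cj s W ≤ BT S := sup_le h.bc.le (h.cj_le h.mem)

/-- `C_V(B) ≤ ⟨z, z^s⟩`. -/
theorem VB_le (h : PX S P W x z s) (hq : q ∈ W ⊔ cj s W) (hc : q ∈ centralizer (BT S : Set G)) :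
    q ∈ zpowers z ⊔ zpowers (s * z * s⁻¹) := by
  have k : ∀ {U : Subgroup G} {y e w : G}, BC (BT S) U y → Zc (BT S) U e → w ∈ U →
      w ∈ centralizer (BT S : Set G) → w ∈ zpowers e := fun {U y e w} a b c d => by
    by_cases w1 : w = 1
    · rw [w1]; exact one_mem _
    · rw [b.eq a c w1 d]; exact mem_zpowers _
  by_cases e : cj s W = W
  · rw [e, sup_idem] at hq
    exact mem_sup_left (k h.bc h.zc hq hc)
  obtain ⟨i1, i2, -⟩ := h.ind s h.mem e
  obtain ⟨a, ha, b, hb, rfl⟩ := (mem_sup_left_norm (le_normalizer_of_le_centralizer i2)).1 hq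
  have b2 := h.bc_cj h.mem
  have hb' : ∀ r ∈ BT S, r * a * r⁻¹ = a := fun r hr => by
    have h1 : a⁻¹ * (r * a * r⁻¹) ∈ W ⊓ cj s W := by
      refine mem_inf.2 ⟨mul_mem (inv_mem ha) (conj_mem_of_mem_normalizer (h.bc.nB hr) ha), ?_⟩
      have e1 : a⁻¹ * (r * a * r⁻¹) = b * (r * b * r⁻¹)⁻¹ := by
        have := hc r hr
        calc a⁻¹ * (r * a * r⁻¹) = a⁻¹ * (r * (a * b)) * b⁻¹ * r⁻¹ := by group
          _ = _ := by rw [this]; group
      rw [e1]
      exact mul_mem hb (inv_mem (conj_mem_of_mem_normalizer (b2.nB hr) hb))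
    rw [i1, mem_bot, inv_mul_eq_one] at h1
    exact h1.symm
  have ha' : a ∈ centralizer (BT S : Set G) := fun r hr => mul_inv_eq_iff_eq_mul.1 (hb' r hr)
  exact mul_mem (mem_sup_left (k h.bc h.zc ha ha'))
    (mem_sup_right (k b2 (h.zc_cj (nB h.mem)) hb ((mul_mem_cancel_left ha').1 hc)))

theorem zz_le (h : PX S P W x z s) : zpowers z ⊔ zpowers (s * z * s⁻¹) ≤ W ⊔ cj s W :=
  sup_le_sup (zpowers_le.2 h.zc.mem) (zpowers_le.2 (conj_mem_cj h.zc.mem))

section NS

variable (h : NS S P P' W W' D D' x x' z s)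
include h

theorem core_eq : S ⊓ centralizer ((W ⊔ cj s W : Subgroup G) : Set G) = W ⊔ cj s W ⊔ D :=
  h.px.core.symm.trans h.h.core

theorem D_le : D ≤ S ⊓ centralizer ((W ⊔ cj s W : Subgroup G) : Set G) :=
  (core_eq h).symm ▸ le_sup_right

theorem V_cD : W ⊔ cj s W ≤ centralizer (D : Set G) :=
  le_centralizer_iff.1 ((D_le h).trans inf_le_right)

theorem cj_cD (ht : t ∈ S) : cj t (centralizer (D : Set G)) = centralizer (D : Set G) := by
  rw [cj_centralizer, cj_eq_self (h.h.nD (h.px.le ht))]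

theorem V'_cD : W' ⊔ cj s W' ≤ centralizer (D : Set G) :=
  sup_le (le_centralizer_iff.1 h.h.cD)
    (cj_cD h h.px.mem ▸ cj_mono s (le_centralizer_iff.1 h.h.cD))

theorem B_cD : BT S ≤ centralizer (D : Set G) := by
  rw [h.B]
  refine h.h.dec.trans (sup_le ?_ (V'_cD h))
  rw [h.h.core]
  exact sup_le (V_cD h) (H12.ea_le_centralizer h.h.ea)

theorem core_eq_B :
    pCoreOf 2 P = BT S ⊓ centralizer ((W ⊔ cj s W : Subgroup G) : Set G) := by
  rw [h.px.core, h.B, inf_assoc]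
  congr 1
  refine (inf_eq_right.2 fun a ha => mem_centralizer_singleton_iff.2 ?_).symm
  exact (ha z (mem_sup_left h.px.zc.mem)).symm

theorem D_le_B : D ≤ BT S :=
  le_sup_right.trans ((h.h.core.symm.trans (core_eq_B h)).le.trans inf_le_left)

theorem Q_ea : IsElementaryAbelian 2 (pCoreOf 2 P) := by
  rw [h.h.core]
  exact H12.ea_sup (V_ea h.px) h.h.ea (V_cD h)

theorem x_cD : x ∈ centralizer (D : Set G) :=
  h.h.rD (mem_res_of_coprime h.px.x_mem h.px.odd.coprime_two_right)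

/-- `D = C_Q(x, x^s)`. -/
theorem mem_D (hq : q ∈ pCoreOf 2 P) (h1 : x * q = q * x)
    (h2 : s * x * s⁻¹ * q = q * (s * x * s⁻¹)) : q ∈ D := by
  rw [h.h.core] at hq
  obtain ⟨v, hv, d, hd, rfl⟩ :=
    (mem_sup_left_norm (le_normalizer_of_le_centralizer (V_cD h))).1 hq
  have k : ∀ y ∈ centralizer (D : Set G), y * (v * d) = v * d * y → y * v = v * y :=
    fun y hy e => by
      rw [mul_assoc, hy d hd, ← mul_assoc, ← mul_assoc] at e
      exact mul_right_cancel e
  have k1 := k x (x_cD h) h1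
  have k2 := k _ (cj_cD h h.px.mem ▸ conj_mem_cj (x_cD h)) h2
  suffices v = 1 by rw [this, one_mul]; exact hd
  by_contra v1
  by_cases e : cj s W = W
  · rw [e, sup_idem] at hv
    exact x_move h.px.bc hv v1 k1
  obtain ⟨-, i2, i3⟩ := h.px.ind s h.px.mem e
  obtain ⟨a, ha, b, hb, rfl⟩ := (mem_sup_left_norm (le_normalizer_of_le_centralizer i2)).1 hv
  by_cases a1 : a = 1
  · rw [a1, one_mul] at k2 v1
    exact x_move (h.px.bc_cj h.px.mem) hb v1 k2
  · refine x_move h.px.bc ha a1 ?_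
    rw [mul_assoc, i3 b hb, ← mul_assoc, ← mul_assoc] at k1
    exact mul_right_cancel k1

variable [Finite G] (hP : PH S) (nb : NB S P)
include hP nb

theorem L_facts : S ≤ P ⊔ normalizer (BT S : Set G) ∧
    Group.IsSolvable (P ⊔ normalizer (BT S : Set G) : Subgroup G) ∧
    CharP 2 (P ⊔ normalizer (BT S : Set G)) ∧ IsSyl 2 S (P ⊔ normalizer (BT S : Set G)) :=
  have k : S ≤ P ⊔ normalizer (BT S : Set G) := h.px.le.trans le_sup_left
  ⟨k, hP.sol _ k nb, hP.chr _ k nb, hP.syl.of_le k le_top⟩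

theorem xn_mem (hn : n ∈ normalizer (BT S : Set G)) :
    n * x * n⁻¹ ∈ P ⊔ normalizer (BT S : Set G) :=
  mul_mem (mul_mem (mem_sup_right hn) (mem_sup_left h.px.x_mem)) (mem_sup_right (inv_mem hn))

theorem cj_cases (hn : n ∈ normalizer (BT S : Set G)) : cj n W = W ∨ cj n W = cj s W := by
  by_contra hc
  obtain ⟨n1, n2⟩ := not_or.1 hc
  obtain ⟨-, hs, hc, hT⟩ := L_facts h hP nb
  have b1 := H48.NG.BC_cj' h.px.bc hn
  have b2 := h.px.bc_cj h.px.mem
  have z1 := h.px.zc_cj hn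
  have m1 := xn_mem h hP nb hn
  have m2 := xn_mem h hP nb (nB h.px.mem)
  have m0 : x ∈ P ⊔ normalizer (BT S : Set G) := mem_sup_left h.px.x_mem
  have ho : Odd (orderOf (n * x * n⁻¹)) := by
    have : orderOf (n * x * n⁻¹) = orderOf x := (MulAut.conj n).orderOf_eq x
    rw [this]; exact h.px.odd
  have c1 : cj n W ≤ W ⊔ cj s W ⊔ D := by
    rw [← core_eq h, H98.centralizer_sup]
    exact le_inf (b1.le.trans (bm_le S))
      (le_inf (nf hs hc hT b1 h.px.bc m1 m0 n1).2.1 (nf hs hc hT b1 b2 m1 m2 n2).2.1)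
  have c2 : n * x * n⁻¹ ∈ centralizer ((W ⊔ cj s W : Subgroup G) : Set G) := by
    rw [H98.centralizer_sup]
    exact ⟨nf_odd hs hc hT b1 h.px.bc m1 m0 n1 ho, nf_odd hs hc hT b1 b2 m1 m2 n2 ho⟩
  obtain ⟨b, hb, hb'⟩ := exists_notMem b1
  obtain ⟨w, hw, w1, w2⟩ := f_exists b1.four (n * z * n⁻¹)
  have e := f_move b1.four (b1.nB hb) z1.mem z1.ne (z1.comm b hb) hb' hw w1 w2
  obtain ⟨v, hv, d, hd, rfl⟩ :=
    (mem_sup_left_norm (le_normalizer_of_le_centralizer (V_cD h))).1 (c1 hw)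
  have hv' := conj_mem_of_mem_normalizer (h.px.nV (h.px.le (bm_le S hb))) hv
  have e2 : n * z * n⁻¹ = v⁻¹ * (b * v * b⁻¹) := by
    have e3 := V_cD h (mul_mem (inv_mem hv) hv') d hd
    calc n * z * n⁻¹ = (v * d)⁻¹ * (b * (v * d) * b⁻¹) := by rw [e]; group
      _ = d⁻¹ * v⁻¹ * b * v * (b * d)⁻¹ * (b * d) * (d * b⁻¹) := by group
      _ = d⁻¹ * (v⁻¹ * (b * v * b⁻¹) * d) := by
        rw [show d * b⁻¹ = b⁻¹ * d from (B_cD h (inv_mem hb) d hd)]; group
      _ = _ := by rw [← e3]; group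
  exact x_move b1 z1.mem z1.ne (c2 _ (e2 ▸ mul_mem (inv_mem hv) hv')).symm

theorem cj_le_V (hn : n ∈ normalizer (BT S : Set G)) : cj n W ≤ W ⊔ cj s W :=
  (cj_cases h hP nb hn).elim (fun e => e.le.trans le_sup_left) fun e => e.le.trans le_sup_right

theorem N_V : normalizer (BT S : Set G) ≤ normalizer ((W ⊔ cj s W : Subgroup G) : Set G) :=
  fun n hn => mem_normalizer_of_cj_le (by
    rw [cj_sup, cj_cj]
    exact sup_le (cj_le_V h hP nb hn) (cj_le_V h hP nb (mul_mem hn (nB h.px.mem))))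

theorem N_Q : normalizer (BT S : Set G) ≤ normalizer (pCoreOf 2 P : Set G) := by
  rw [core_eq_B h]
  exact le_normalizer_inf le_rfl (le_normalizer_centralizer (N_V h hP nb))

/-- The stabilizer in `L` of the series `1 ≤ V ≤ Q` is contained in `Q`. -/
theorem T0_le : (P ⊔ normalizer (BT S : Set G)) ⊓
    centralizer ((W ⊔ cj s W : Subgroup G) : Set G) ⊓ stab (pCoreOf 2 P) (W ⊔ cj s W) ≤
      pCoreOf 2 P := by
  obtain ⟨-, -, hc, hT⟩ := L_facts h hP nb
  have lV := sup_le h.px.nV (N_V h hP nb)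
  have lQ := sup_le (self_le_normalizer_pCoreOf (p := 2) P) (N_Q h hP nb)
  have k : pCoreOf 2 (P ⊔ normalizer (BT S : Set G)) ≤ pCoreOf 2 P :=
    pCoreOf_le_pCoreOf le_sup_left (hT.pCoreOf_le.trans h.px.le)
  refine (le_pCoreOf ?_ (inf_le_left.trans inf_le_left) (le_normalizer_inf
    (le_normalizer_inf le_normalizer (le_normalizer_centralizer lV))
    (le_normalizer_stab lQ lV))).trans k
  refine isPGroup_of_forall_pow_mem (isPGroup_pCoreOf (P ⊔ normalizer (BT S : Set G)))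
    fun c ⟨⟨c1, c2⟩, c3⟩ => ⟨1, hc ⟨pow_mem c1 _, H98.centralizer_anti k fun q hq => ?_⟩⟩
  have h1 := c3.2 q hq
  have h2 := c2 _ h1
  have h3 := (V_ea h.px).2 _ h1
  rw [commutatorElement_def] at h2 h3
  rw [pow_one, sq]
  rw [sq] at h3
  calc q * (c * c) = (q * c * q⁻¹ * c⁻¹ * c) * (q * c * q⁻¹ * c⁻¹) * c * q := by group
    _ = c * ((q * c * q⁻¹ * c⁻¹) * (q * c * q⁻¹ * c⁻¹)) * c * q := by rw [h2]; group
    _ = _ := by rw [h3]; group

theorem xn_cD (hn : n ∈ normalizer (BT S : Set G)) : n * x * n⁻¹ ∈ centralizer (D : Set G) := by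
  have xs : x ∈ stab (pCoreOf 2 P) (W ⊔ cj s W) := by
    have xV := h.px.nV h.px.x_mem
    refine zpowers_le.1 (le_stab_iff.2 ⟨zpowers_le.2 xV, ?_⟩)
    rw [h.h.core]
    refine commutator_sup_left_le le_normalizer
      (le_normalizer_of_le_centralizer ((D_le h).trans inf_le_right))
      (commutator_le_left' (zpowers_le.2 xV)) ?_
    rw [commutator_comm, commutator_eq_bot_iff_le_centralizer.2 (zpowers_le.2 (x_cD h))]
    exact bot_le
  have k : ∀ n ∈ normalizer (BT S : Set G), cj n W = W →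
      n * x * n⁻¹ ∈ centralizer (D : Set G) := fun n hn e => by
    obtain ⟨-, hs, hc, hT⟩ := L_facts h hP nb
    have b1 := H48.NG.BC_cj' h.px.bc hn
    rw [e] at b1
    have m1 := xn_mem h hP nb hn
    have m0 : x ∈ P ⊔ normalizer (BT S : Set G) := mem_sup_left h.px.x_mem
    have ho : Odd (orderOf (n * x * n⁻¹)) := by
      have : orderOf (n * x * n⁻¹) = orderOf x := (MulAut.conj n).orderOf_eq x
      rw [this]; exact h.px.odd
    obtain ⟨a, ha, c, hc', e1⟩ := four_odd b1.four h.px.bc.nx h.px.bc.mov h.px.odd b1.nx ho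
    have e2 : c = a⁻¹ * (n * x * n⁻¹) := by rw [e1]; group
    have c1 : c ∈ pCoreOf 2 P := by
      refine T0_le h hP nb (mem_inf.2 ⟨mem_inf.2 ⟨?_, ?_⟩, ?_⟩)
      · rw [e2]; exact mul_mem (inv_mem (zpowers_le.2 m0 ha)) m1
      · rw [H98.centralizer_sup]
        refine mem_inf.2 ⟨hc', ?_⟩
        by_cases e3 : cj s W = W
        · rw [e3]; exact hc'
        · rw [e2]
          exact mul_mem (inv_mem (zpowers_le.2 (h.px.ind s h.px.mem e3).2.2 ha))
            (nf_odd hs hc hT b1 (h.px.bc_cj h.px.mem) m1 (xn_mem h hP nb (nB h.px.mem))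
              (Ne.symm e3) ho)
      · rw [e2]
        exact mul_mem (inv_mem (zpowers_le.2 xs ha)) (conj_mem_of_mem_normalizer
          (le_normalizer_stab (N_Q h hP nb) (N_V h hP nb) hn) xs)
    rw [e1]
    exact mul_mem (zpowers_le.2 (x_cD h) ha) (B_cD h ((core_eq_B h).le c1).1)
  rcases cj_cases h hP nb hn with e | e
  · exact k n hn e
  · have h1 := k (s⁻¹ * n) (mul_mem (inv_mem (nB h.px.mem)) hn) (by rw [← cj_cj, e, cj_inv_cj])
    rw [← cj_cD h h.px.mem, mem_cj]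
    simpa [mul_assoc] using h1

theorem N_D : normalizer (BT S : Set G) ≤ normalizer (D : Set G) := fun n hn =>
  mem_normalizer_of_cj_le (by
    rintro _ ⟨d, hd, rfl⟩
    have k : ∀ m ∈ normalizer (BT S : Set G),
        m * x * m⁻¹ * (n * d * n⁻¹) = n * d * n⁻¹ * (m * x * m⁻¹) := fun m hm => by
      have := xn_cD h hP nb (mul_mem (inv_mem hn) hm) d hd
      calc m * x * m⁻¹ * (n * d * n⁻¹) = n * (n⁻¹ * m * x * (n⁻¹ * m)⁻¹ * d) * n⁻¹ := by group
        _ = _ := by rw [← this]; group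
    refine mem_D h (conj_mem_of_mem_normalizer (N_Q h hP nb hn) (h.h.core ▸ mem_sup_right hd)) ?_
      (k s (nB h.px.mem))
    simpa using k 1 (one_mem _))

/-- An element of `N(B)` normalizing `W` fixes `z` and `z^s`. -/
theorem fix_zz (hn : n ∈ normalizer (BT S : Set G)) (e : cj n W = W) :
    zpowers z ⊔ zpowers (s * z * s⁻¹) ≤ centralizer ({n} : Set G) := by
  have k1 := h.px.zc_cj hn
  have k2 := h.px.zc_cj (mul_mem hn (nB h.px.mem))
  have e2 : cj (n * s) W = cj s W := by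
    rcases cj_cases h hP nb (mul_mem hn (nB h.px.mem)) with e1 | e1
    · have e3 : cj s W = W := by
        rw [← cj_cj] at e1
        exact cj_inj.1 (e1.trans e.symm)
      rw [e1, e3]
    · exact e1
  rw [e] at k1
  rw [e2] at k2
  have f1 := h.px.zc.eq h.px.bc k1.mem k1.ne fun b hb => k1.comm b hb
  have f2 := (h.px.zc_cj (nB h.px.mem)).eq (h.px.bc_cj h.px.mem) k2.mem k2.ne
    fun b hb => k2.comm b hb
  refine sup_le (zpowers_le.2 (mem_centralizer_singleton_iff.2 ?_))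
    (zpowers_le.2 (mem_centralizer_singleton_iff.2 ?_))
  · exact (mul_inv_eq_iff_eq_mul.1 f1).symm
  · calc s * z * s⁻¹ * n = n * s * z * (n * s)⁻¹ * n := by rw [f2]
      _ = _ := by group

theorem fix_D (nb' : NB S P') (hn : n ∈ normalizer (BT S : Set G)) (e : cj n W = W) {d : G}
    (hd : d ∈ D) : n * d * n⁻¹ = d := by
  have h1 : d ∈ W' ⊔ cj s W' ⊔ D' := by
    rw [← core_eq h.symm]
    exact ⟨(D_le h hd).1, le_centralizer_iff.1 (V'_cD h) hd⟩
  obtain ⟨v, hv, d', hd', e1⟩ :=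
    (mem_sup_left_norm (le_normalizer_of_le_centralizer (V_cD h.symm))).1 h1
  have h2 : v ∈ centralizer (BT S : Set G) := by
    have := mul_mem (le_centralizer_iff.1 (B_cD h) hd) (inv_mem (le_centralizer_iff.1 (B_cD h.symm) hd'))
    rwa [e1, mul_inv_cancel_right] at this
  have h3 := mem_centralizer_singleton_iff.1 (fix_zz h hP nb hn e (VB_le h.px' hv h2))
  have h4 : d⁻¹ * (n * d * n⁻¹) ∈ D ⊓ D' := by
    refine mem_inf.2 ⟨mul_mem (inv_mem hd) (conj_mem_of_mem_normalizer (N_D h hP nb hn) hd), ?_⟩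
    have e2 : d⁻¹ * (n * d * n⁻¹) = d'⁻¹ * (n * d' * n⁻¹) := by
      rw [e1]
      calc (v * d')⁻¹ * (n * (v * d') * n⁻¹) = d'⁻¹ * v⁻¹ * (n * v) * d' * n⁻¹ := by group
        _ = _ := by rw [← h3]; group
    rw [e2]
    exact mul_mem (inv_mem hd') (conj_mem_of_mem_normalizer (N_D h.symm hP nb' hn) hd')
  rw [h.inf, mem_bot, inv_mul_eq_one] at h4
  exact h4.symm

omit hP nb in
theorem E_inf : (W ⊔ cj s W ⊔ (W' ⊔ cj s W')) ⊓ D = ⊥ := by
  rw [eq_bot_iff]
  rintro d ⟨h1, hd⟩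
  have V'S : W' ⊔ cj s W' ≤ S := (V_le h.px').trans (bm_le S)
  obtain ⟨v, hv, v', hv', rfl⟩ :=
    (mem_sup_right_norm (V'S.trans (h.px.le.trans h.px.nV))).1 h1
  have h2 : v' ∈ pCoreOf 2 P := by
    rw [h.px.core]
    exact ⟨V'S hv', (mul_mem_cancel_left (H12.ea_le_centralizer (V_ea h.px) hv)).1 (D_le h hd).2⟩
  have h3 : v' ∈ centralizer (BT S : Set G) := by
    rw [h.B]
    refine H98.centralizer_anti h.h.dec ?_
    rw [H98.centralizer_sup]
    exact ⟨H12.ea_le_centralizer (Q_ea h) h2, H12.ea_le_centralizer (V_ea h.px') hv'⟩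
  rw [← h.h.inf]
  exact ⟨mul_mem hv (zz_le h.px (VB_le h.px' hv' h3)), hd⟩

omit hP nb in
theorem comm_le : ⁅S, S⁆ ≤ W ⊔ cj s W ⊔ (W' ⊔ cj s W') ⊔ ⁅D, S⁆ := by
  set K := W ⊔ cj s W ⊔ (W' ⊔ cj s W') ⊔ ⁅D, S⁆ with hK
  have sD : S ≤ normalizer (D : Set G) := h.px.le.trans h.h.nD
  have nK : S ≤ normalizer (K : Set G) :=
    le_normalizer_sup (le_normalizer_sup (h.px.le.trans h.px.nV) (h.px'.le.trans h.px'.nV))
      (le_normalizer_commutator sD le_normalizer)
  have kK : K ≤ stab S K := le_stab_iff.2 ⟨le_normalizer, commutator_le_right' nK⟩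
  have kB : BT S ≤ stab S K := by
    rw [h.B]
    refine h.h.dec.trans (sup_le ?_ ((le_sup_right.trans le_sup_left).trans kK))
    rw [h.h.core]
    refine sup_le ((le_sup_left.trans le_sup_left).trans kK) (le_stab_iff.2
      ⟨((D_le h).trans inf_le_left).trans nK, ?_⟩)
    rw [commutator_comm]
    exact le_sup_right
  have dec : ∀ t ∈ S, t ∈ BT S ∨ s⁻¹ * t ∈ BT S := fun t ht => by
    rw [h.B]
    have m := mul_mem (inv_mem h.px.mem) ht
    refine (h.px.two t ht).imp (fun e => ⟨ht, ?_⟩) fun e => ⟨m, ?_⟩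
    · exact mem_centralizer_singleton_iff.2 ((h.px.fix ht).1 e)
    · exact mem_centralizer_singleton_iff.2 ((h.px.fix m).1 (by rw [← cj_cj, e, cj_inv_cj]))
  have ks : s ∈ stab S K := by
    refine ⟨nK h.px.mem, fun c hc => ?_⟩
    have k : ∀ b ∈ BT S, ⁅b, s⁆ ∈ K := fun b hb => by
      rw [← commutatorElement_inv]
      exact inv_mem ((kB hb).2 s h.px.mem)
    rcases dec c hc with e | e
    · exact k c e
    · have := conj_mem_of_mem_normalizer (nK h.px.mem) (k _ e)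
      rwa [show s * ⁅s⁻¹ * c, s⁆ * s⁻¹ = ⁅c, s⁆ by simp only [commutatorElement_def]; group]
        at this
  refine (le_stab_iff.1 fun t ht => ?_).2
  rcases dec t ht with e | e
  · exact kB e
  · simpa using mul_mem ks (kB e)

theorem eq_bot (nb' : NB S P') : D = ⊥ := by
  by_contra hD
  have DS : D ≤ S := (D_le h).trans inf_le_left
  have sD : S ≤ normalizer (D : Set G) := h.px.le.trans h.h.nD
  have lt := H98.commutator_lt_of_isPGroup (H12.ea_isPGroup h.h.ea) hP.syl.isPGroup sD hD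
  obtain ⟨y, hy, hy'⟩ := SetLike.exists_of_lt lt
  have yy : y * y = 1 := by rw [← sq]; exact h.h.ea.2 y hy
  refine H12.not_mem_res_of_extremal hP.syl (comm_le h) yy (DS hy) (fun hm => hy' ?_) (D_le_B h hy)
    h.px.bc.pB (fun r hr => (B_cD h hr y hy).symm) (fun a ha => ?_) (hP.res.symm ▸ mem_top y)
  · obtain ⟨e, he, d, hd, rfl⟩ := (mem_sup_left_norm (le_normalizer_of_le_centralizer
      ((sup_le (V_cD h) (V'_cD h)).trans (H98.centralizer_anti lt.le)))).1 hm
    have h1 : e ∈ (W ⊔ cj s W ⊔ (W' ⊔ cj s W')) ⊓ D :=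
      ⟨he, (mul_mem_cancel_right (lt.le hd)).1 hy⟩
    rw [E_inf h, mem_bot] at h1
    rw [h1, one_mul]
    exact hd
  · have hn := hP.syl.wc_bm.mem_normalizer hP.syl.isPGroup (bm_le S) (mem_top a) ha
    rcases cj_cases h hP nb hn with e | e
    · rw [fix_D h hP nb nb' hn e hy, yy]
      exact one_mem _
    · have h1 := fix_D h hP nb nb' (mul_mem (inv_mem (nB h.px.mem)) hn)
        (by rw [← cj_cj, e, cj_inv_cj]) hy
      have h2 : a * y * a⁻¹ * y = ⁅y, s⁆⁻¹ := by
        calc a * y * a⁻¹ * y = s * (s⁻¹ * a * y * (s⁻¹ * a)⁻¹) * s⁻¹ * y := by group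
          _ = _ := by
            rw [h1, commutatorElement_inv, commutatorElement_def, inv_eq_of_mul_eq_one_right yy]
      rw [h2]
      exact mem_sup_right (inv_mem (commutator_mem_commutator hy h.px.mem))

end NS

theorem jobNK : JobNK.{u} := fun _ _ _ _ _ _ _ _ _ _ _ _ _ _ hP h nb nb' => eq_bot h hP nb nb'

end H35.QP
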